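import Cfsg.Agent.H955.FSAmb
import Cfsg.Agent.H705.Indicator
import Cfsg.Agent.CharactersDeep.CosetAverage
import Cfsg.Agent.CharactersDeep.MaxInduced
import Cfsg.Agent.H594.Cyclic
import Cfsg.Agent.S0888
import Cfsg.Agent.S0867

/-!
# TEAM SR (S4970), FR-TDE, part P1: indicators of characters over an extendible real character (helper392)

* `fsi_restrict` : `χ` real irreducible, `χ ∘ f` irreducible: the same indicator;
* `fsi_mul` : `α`, `β`, `α β` irreducible, `α`, `β` real: `ν(α β) = ν(α) ν(β)`;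
* `exists_real_ext` : `N ⊴ G` a 2-group, `θ ∈ Irr N` invariant, `N ≤ P`, `|G : P|` odd, `x² ∈ N` for `x ∈ P`, `θ` extends to
  a real character of `P`: then it extends to a real character of `G`;
* `ext_good` : if moreover `ν(θ) = 1` and `G / N` has no indicator `-1`, then `ν(χ) ≠ -1` for `χ` over `θ`.
-/

set_option autoImplicit false
set_option linter.unusedSectionVars false
set_option linter.style.haveILetI false

universe u

namespace Cfsg.Agent.H392.FRExt

open Cfsg Representation Cfsg.Agent.H955.FS Cfsg.Agent.H705.Indicator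
open Cfsg.Agent.Characters.Core Cfsg.Agent.CharactersDeep.CosetAverage
open scoped ComplexConjugate

/-! ### Restriction -/

theorem fsi_eq' {G : Type u} [Group G] [Fintype G] (χ : G → ℂ) :
    fsi χ = (Nat.card G : ℂ)⁻¹ * ∑ s : G, χ (s * s) := fsi_eq_sum χ

/-- A real irreducible character and an irreducible restriction have the same indicator. -/
theorem fsi_restrict {X H : Type u} [Group X] [Group H] [Finite X] [Finite H] (f : H →* X) {χ : X → ℂ}
    (hχ : IsIrrCharacter X χ) (hψ : IsIrrCharacter H (χ ∘ f)) (hreal : ∀ g, (χ g).im = 0) :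
    fsi (χ ∘ f) = fsi χ := by
  classical
  haveI := Fintype.ofFinite X
  haveI := Fintype.ofFinite H
  haveI : Invertible (Nat.card X : ℂ) := invertibleOfNonzero (by
    exact_mod_cast Nat.card_pos.ne')
  haveI : Invertible (Nat.card H : ℂ) := invertibleOfNonzero (by
    exact_mod_cast Nat.card_pos.ne')
  rw [fsi_eq', fsi_eq']
  obtain ⟨n, ρ, hρ, rfl⟩ := hχ
  obtain ⟨m, σ, hσ, hσc⟩ := hψ
  obtain ⟨ε, hε, hε1, hε2⟩ := indicator_eq ρ
  obtain ⟨δ, hδ, hδ1, hδ2⟩ := indicator_eq σ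
  have hmn : m = n := by
    have h1 := congrFun hσc 1
    simp only [Function.comp_apply, map_one, char_one, Module.finrank_fin_fun] at h1
    exact_mod_cast h1
  subst hmn
  have hrank : (Module.finrank ℂ (IntertwiningMap ρ ρ.dual) : ℂ) = 1 := by
    have hself : (Nat.card X : ℂ)⁻¹ * ∑ g : X, ρ.character g * ρ.character g⁻¹ = 1 := by
      rw [card_inv_mul_sum_char_mul_char_eq_finrank ρ ρ]
      simp
    rw [← finrank_dual, ← hself]
    have hinvρ : ∀ g : X, ρ.character g⁻¹ = ρ.character g := by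
      intro g
      rw [Cfsg.Agent.S0158.char_inv]
      exact Complex.conj_eq_iff_im.2 (hreal g)
    simp only [hinvρ]
  have hrank' : (Module.finrank ℂ (IntertwiningMap σ σ.dual) : ℂ) = 1 := by
    have hself : (Nat.card H : ℂ)⁻¹ * ∑ g : H, σ.character g * σ.character g⁻¹ = 1 := by
      rw [card_inv_mul_sum_char_mul_char_eq_finrank σ σ]
      simp
    rw [← finrank_dual, ← hself]
    have hinvρ : ∀ g : H, σ.character g⁻¹ = σ.character g := by
      intro g
      rw [Cfsg.Agent.S0158.char_inv]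
      refine Complex.conj_eq_iff_im.2 ?_
      rw [hσc]
      exact hreal (f g)
    simp only [hinvρ]
  rw [hrank, mul_one] at hε2
  rw [hrank', mul_one] at hδ2
  have h1 : (Nat.card H : ℂ)⁻¹ * ∑ s : H, (ρ.character ∘ f) (s * s) = δ := by
    rw [← hδ2, hσc]
  rw [h1, hε2]
  obtain ⟨f₀, hf₀⟩ := exists_ne_zero (n := m) (ρ := ρ) (σ := ρ.dual) (by
    intro h0
    rw [h0] at hrank
    simp at hrank)
  -- the isomorphism
  have hm1 : Module.finrank ℂ (IntertwiningMap σ (ρ.comp f)) = 1 := by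
    have h1 := card_inv_mul_sum_char_mul_char_eq_finrank (k := ℂ) σ (ρ.comp f)
    have h3 : ∀ g : H, Representation.character (ρ.comp f) g = σ.character g := fun g => (congrFun hσc g).symm
    have hself : (Nat.card H : ℂ)⁻¹ * ∑ g : H, σ.character g * σ.character g⁻¹ = 1 := by
      rw [card_inv_mul_sum_char_mul_char_eq_finrank σ σ]
      simp
    simp only [h3] at h1
    rw [hself] at h1
    exact_mod_cast h1.symm
  obtain ⟨i, hi⟩ := exists_ne_zero (n := m) (ρ := σ) (σ := ρ.comp f) (by rw [hm1]; norm_num)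
  have hinj : Function.Injective i := (IsIrreducible.injective_or_eq_zero i).resolve_right hi
  have hsurj : Function.Surjective i := LinearMap.injective_iff_surjective.1 hinj
  have hsw : ∀ (g : X) (v w : Fin m → ℂ), f₀ (ρ g v) (ρ g w) = f₀ v w :=
    fun g v w => Cfsg.Agent.S0158.dual_swap ρ f₀ g v w
  -- the pulled back form
  let B : IntertwiningMap σ σ.dual :=
    LinearMap.intertwiningMap_of_isIntertwiningMap σ σ.dual
      (LinearMap.compl₁₂ (show (Fin m → ℂ) →ₗ[ℂ] (Fin m → ℂ) →ₗ[ℂ] ℂ from f₀.toLinearMap) i.toLinearMap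
        i.toLinearMap) (by
        intro h v
        ext w
        simp only [Representation.dual_apply, Module.Dual.transpose_apply, LinearMap.coe_comp,
          Function.comp_apply, LinearMap.compl₁₂_apply]
        have h1 := hsw (f h) (i v) (i (σ h⁻¹ (Pi.single w 1)))
        have h2 : i (σ h⁻¹ (Pi.single w 1)) = ρ (f h⁻¹) (i (Pi.single w 1)) :=
          i.isIntertwining σ (ρ.comp f) h⁻¹ _
        have h3 : ρ (f h) (i (σ h⁻¹ (Pi.single w 1))) = i (Pi.single w 1) := by
          rw [h2, ← Module.End.mul_apply, ← map_mul, ← map_mul, mul_inv_cancel, map_one, map_one,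
            Module.End.one_apply]
        have h4 : i (σ h v) = ρ (f h) (i v) := i.isIntertwining σ (ρ.comp f) h v
        rw [h3] at h1
        show f₀ (i (σ h v)) (i (Pi.single w 1)) = f₀ (i v) (i (σ h⁻¹ (Pi.single w 1)))
        rw [h4, h1])
  have hB : ∀ v w, B v w = f₀ (i v) (i w) := fun _ _ => rfl
  obtain ⟨v, w, hvw⟩ : ∃ v w : Fin m → ℂ, f₀ v w ≠ 0 := by
    by_contra hcon
    push Not at hcon
    apply hf₀
    apply IntertwiningMap.ext
    apply LinearMap.ext
    intro v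
    apply LinearMap.ext
    intro w
    exact hcon v w
  obtain ⟨v, rfl⟩ := hsurj v
  obtain ⟨w, rfl⟩ := hsurj w
  have h2 := hδ1 B v w
  rw [hB, hB] at h2
  have h3 := hε1 f₀ (i v) (i w)
  have h4 : f₀ (i w) (i v) ≠ 0 := by
    intro h0
    rw [h0, mul_zero] at h3
    exact hvw h3
  exact mul_right_cancel₀ h4 (h2.symm.trans h3)

/-- **The indicator of a product.** -/
theorem fsi_mul {G : Type u} [Group G] [Finite G] {α β : G → ℂ} (hα : IsIrrCharacter G α)
    (hβ : IsIrrCharacter G β) (hαβ : IsIrrCharacter G (α * β)) (ha : ∀ g, (α g).im = 0)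
    (hb : ∀ g, (β g).im = 0) : fsi (α * β) = fsi α * fsi β := by
  let χ : G × G → ℂ := fun x => α x.1 * β x.2
  have hχ : IsIrrCharacter (G × G) χ := Cfsg.Agent.S0188.isIrr_outer hα hβ
  let f : G →* G × G := MonoidHom.prod (MonoidHom.id G) (MonoidHom.id G)
  have h1 : χ ∘ f = α * β := rfl
  have h2 := fsi_restrict f hχ (by rw [h1]; exact hαβ) (fun g => by
    show (α g.1 * β g.2).im = 0
    rw [Complex.mul_im, ha, hb]
    ring)
  rw [h1, fsi_outer] at h2
  exact h2

/-! ### Multiplying with linear characters -/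

section Gal

variable {G : Type u} [Group G] [Fintype G] (N : Subgroup G) [N.Normal] [Fintype N]

/-- A function constant on the cosets of `N` is determined by its product with `χ`. -/
theorem eq_of_mul_eq {χ : G → ℂ} (hχ : IsIrrCharacter G χ) (hχN : IsIrrCharacter N (fun n : N => χ n))
    {a b : G → ℂ} (ha : ∀ (n : N) (g : G), a ((n : G) * g) = a g) (hb : ∀ (n : N) (g : G), b ((n : G) * g) = b g)
    (h : χ * a = χ * b) : a = b := by
  funext g
  have h1 := cosetAverage_self N χ hχ hχN g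
  have key : ∀ c : G → ℂ, (∀ (n : N) (g : G), c ((n : G) * g) = c g) →
      c g = (Nat.card N : ℂ)⁻¹ * ∑ n : N, (χ * c) ((n : G) * g) * conj (χ ((n : G) * g)) := by
    intro c hc
    have h2 : ∀ n : N, (χ * c) ((n : G) * g) * conj (χ ((n : G) * g))
        = c g * (χ ((n : G) * g) * conj (χ ((n : G) * g))) := by
      intro n
      rw [Pi.mul_apply, hc]
      ring
    rw [Finset.sum_congr rfl fun n _ => h2 n, ← Finset.mul_sum]
    rw [mul_left_comm, h1, mul_one]
  rw [key a ha, key b hb, h]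

end Gal

/-! ### The extension -/

section Ext

variable {G : Type u} [Group G] [Finite G] (N P : Subgroup G) [hN : N.Normal]

/-- An irreducible character constant on the cosets of `N` comes from `G / N`. -/
theorem exists_quot {β : G → ℂ} (hβ : IsIrrCharacter G β) (hβN : ∀ (n : N) (g : G), β ((n : G) * g) = β g) :
    ∃ β' : G ⧸ N → ℂ, IsIrrCharacter (G ⧸ N) β' ∧ β = β' ∘ QuotientGroup.mk' N := by
  have hβ2 := hβ
  obtain ⟨k, ρ, hρ, hρβ⟩ := hβ2
  have hker : ∀ z ∈ N, ρ z = 1 := by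
    intro z hz
    have h1 : ρ z = LinearMap.id := by
      rw [← Cfsg.Agent.Characters.Values.character_eq_finrank_iff, hρβ]
      have h2 := hβN ⟨z, hz⟩ 1
      rw [mul_one] at h2
      rw [show β z = β 1 from h2, ← hρβ]
      simp
    exact h1
  let ρ' : Representation ℂ (G ⧸ N) (Fin k → ℂ) := QuotientGroup.lift N ρ hker
  have h2 : β = ρ'.character ∘ QuotientGroup.mk' N := by
    rw [← hρβ]
    rfl
  exact ⟨ρ'.character, Cfsg.Agent.CharactersDeep.MaxInduced.isIrr_of_comp (QuotientGroup.mk' N) ⟨k, ρ', rfl⟩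
    (by rw [← h2]; exact hβ), h2⟩

/-- **Extension** of a character of a normal `2`-subgroup which extends to a group of odd index. -/
theorem exists_ext (hN2 : IsPGroup 2 N) (hNP : N ≤ P) (hP : Odd P.index) (hsq : ∀ x ∈ P, x * x ∈ N)
    {θ : N → ℂ} (hθ : IsIrrCharacter N θ)
    (hinv : ∀ (g : G) (n : N), θ ⟨g * n * g⁻¹, hN.conj_mem n n.2 g⟩ = θ n)
    {η : P → ℂ} (hη : IsIrrCharacter P η) (hηθ : ∀ n : N, η ⟨n, hNP n.2⟩ = θ n) :
    ∃ χ : G → ℂ, IsIrrCharacter G χ ∧ ∀ n : N, χ n = θ n := by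
  classical
  refine Cfsg.Agent.S0888.result N θ hθ hinv fun p hp => ?_
  have : Fact p.Prime := ⟨hp⟩
  by_cases hp2 : p = 2
  · subst hp2
    refine ⟨P, hNP, η, (Nat.coprime_two_right.2 hP), ?_, hη, hηθ⟩
    have hPp : IsPGroup 2 P := by
      intro x
      obtain ⟨k, hk⟩ := hN2 ⟨(x : G) * x, hsq x x.2⟩
      refine ⟨k + 1, Subtype.ext ?_⟩
      have h1 : ((x : G) * x) ^ 2 ^ k = 1 := congrArg Subtype.val hk
      show (x : G) ^ 2 ^ (k + 1) = 1
      rw [pow_succ', pow_mul, pow_two, h1]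
    obtain ⟨m, hm⟩ := IsPGroup.iff_card.1 hPp
    have h1 : N.relIndex P ∣ 2 ^ m := by
      rw [← hm]
      exact Subgroup.relIndex_dvd_card _ _
    obtain ⟨a, -, ha⟩ := (Nat.dvd_prime_pow Nat.prime_two).1 h1
    exact ⟨a, ha⟩
  · let S : Sylow p (G ⧸ N) := default
    let P' : Subgroup G := (S : Subgroup (G ⧸ N)).comap (QuotientGroup.mk' N)
    have hNP' : N ≤ P' := by
      intro n hn
      show QuotientGroup.mk' N n ∈ (S : Subgroup (G ⧸ N))
      have h1 : QuotientGroup.mk' N n = 1 := (QuotientGroup.eq_one_iff n).2 hn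
      rw [h1]
      exact one_mem _
    have hidx : P'.index.Coprime p := by
      rw [Subgroup.index_comap_of_surjective _ (QuotientGroup.mk'_surjective N), Nat.coprime_comm,
        hp.coprime_iff_not_dvd]
      exact S.not_dvd_index
    have hrel : ∃ k, N.relIndex P' = p ^ k := by
      have h1 : N.relIndex P' = Nat.card (P'.map (QuotientGroup.mk' N)) := by
        rw [← Subgroup.relIndex_ker, QuotientGroup.ker_mk']
      have h2 : P'.map (QuotientGroup.mk' N) = (S : Subgroup (G ⧸ N)) :=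
        Subgroup.map_comap_eq_self_of_surjective (QuotientGroup.mk'_surjective N) _
      rw [h1, h2]
      exact IsPGroup.iff_card.1 S.2
    obtain ⟨k, hk⟩ := hrel
    have := Fintype.ofFinite (N.subgroupOf P')
    have hn' : (N.subgroupOf P').Normal := inferInstance
    let θ' : N.subgroupOf P' → ℂ := fun n => θ ⟨(n : P'), Subgroup.mem_subgroupOf.1 n.2⟩
    have hθ' : IsIrrCharacter (N.subgroupOf P') θ' :=
      isIrr_comp (Subgroup.subgroupOfEquivOfLe hNP').toMonoidHom (Subgroup.subgroupOfEquivOfLe hNP').surjective hθ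
    obtain ⟨d, hd0, hd⟩ := isIrr_apply_one hθ'
    have hcard : Nat.card (N.subgroupOf P') = Nat.card N :=
      Nat.card_congr (Subgroup.subgroupOfEquivOfLe hNP').toEquiv
    obtain ⟨m, hm⟩ := IsPGroup.iff_card.1 hN2
    have hcop : Nat.Coprime (N.subgroupOf P').index (detOrder θ' * d) := by
      have h1 : (N.subgroupOf P').index = p ^ k := hk
      have h2 := H594.Cyclic.detOrder_dvd hθ'
      have h3 := H594.Cyclic.degree_dvd hθ' hd
      rw [hcard, hm] at h2 h3
      rw [h1]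
      have hc : Nat.Coprime (p ^ k) (2 ^ m) := Nat.Coprime.pow _ _ ((Nat.coprime_primes hp Nat.prime_two).2 hp2)
      exact Nat.Coprime.mul_right (hc.coprime_dvd_right h2) (hc.coprime_dvd_right h3)
    obtain ⟨χ, ⟨hχ, hχr, -⟩, -⟩ := Cfsg.Agent.S0867.result (N.subgroupOf P') θ' hθ' (by
      intro g n
      have h1 := hinv (g : G) ⟨(n : P'), Subgroup.mem_subgroupOf.1 n.2⟩
      exact h1) d hd hcop
    exact ⟨P', hNP', χ, hidx, ⟨k, hk⟩, hχ, fun n => hχr ⟨⟨(n : G), hNP' n.2⟩, Subgroup.mem_subgroupOf.2 n.2⟩⟩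

/-- **The real extension.** -/
theorem exists_real_ext (hN2 : IsPGroup 2 N) (hNP : N ≤ P) (hP : Odd P.index) (hsq : ∀ x ∈ P, x * x ∈ N)
    {θ : N → ℂ} (hθ : IsIrrCharacter N θ)
    (hinv : ∀ (g : G) (n : N), θ ⟨g * n * g⁻¹, hN.conj_mem n n.2 g⟩ = θ n)
    {η : P → ℂ} (hη : IsIrrCharacter P η) (hηr : ∀ g, (η g).im = 0) (hηθ : ∀ n : N, η ⟨n, hNP n.2⟩ = θ n) :
    ∃ χ₀ : G → ℂ, IsIrrCharacter G χ₀ ∧ (∀ g, (χ₀ g).im = 0) ∧ ∀ n : N, χ₀ n = θ n := by
  classical
  obtain ⟨χ, hχ, hχθ⟩ := exists_ext N P hN2 hNP hP hsq hθ hinv hη hηθ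
  have := Fintype.ofFinite G
  have := Fintype.ofFinite N
  have := Fintype.ofFinite P
  have := Fintype.ofFinite (N.subgroupOf P)
  have hn' : (N.subgroupOf P).Normal := inferInstance
  have hres : (fun n : N => χ n) = θ := funext hχθ
  have hχN : IsIrrCharacter N (fun n : N => χ n) := by rw [hres]; exact hθ
  have hθr : ∀ n : N, conj (χ n) = χ n := fun n => by
    rw [hχθ, ← hηθ]
    exact Complex.conj_eq_iff_im.2 (hηr _)
  -- the linear character `β`
  obtain ⟨β, hβ, hβN, hβe⟩ := exists_irr_mul N χ hχ hχN (fun g => conj (χ g)) (isIrr_conj hχ) (by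
    have h1 : (fun n : N => (fun g => conj (χ g)) (n : G)) = fun n : N => χ n := funext fun n => hθr n
    rw [h1, classInner_irr_self hχN]
    exact one_ne_zero)
  have hχ1 : χ 1 ≠ 0 := isIrr_apply_one_ne_zero hχ
  have hβ1 : β 1 = 1 := by
    have h1 := congrFun hβe 1
    have h2 := hθr 1
    rw [Subgroup.coe_one] at h2
    simp only [Pi.mul_apply] at h1
    rw [h2] at h1
    exact (mul_left_cancel₀ hχ1 (by rw [mul_one]; exact h1)).symm
  obtain ⟨φ, hφ⟩ := Cfsg.Agent.CharactersDeep.LinearExt.exists_hom_of_isCharacter (isIrr_isCharacter hβ) hβ1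
  -- the restriction to `P`
  set χP : P → ℂ := fun x => χ x with hχPdef
  have hχPN : IsIrrCharacter (N.subgroupOf P) (fun n : N.subgroupOf P => χP n) :=
    isIrr_comp (Subgroup.subgroupOfEquivOfLe hNP).toMonoidHom (Subgroup.subgroupOfEquivOfLe hNP).surjective hχN
  have hηN : (fun n : N.subgroupOf P => η n) = fun n : N.subgroupOf P => χP n := by
    funext n
    have h1 := hηθ ⟨(n : P), Subgroup.mem_subgroupOf.1 n.2⟩
    have h2 := hχθ ⟨(n : P), Subgroup.mem_subgroupOf.1 n.2⟩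
    show η (n : P) = χ ((n : P) : G)
    rw [h2]
    exact h1
  have hχPc : IsCharacter P χP := isCharacter_comp P.subtype (isIrr_isCharacter hχ)
  have hχP : IsIrrCharacter P χP :=
    Cfsg.Agent.CharactersDeep.MaxInduced.isIrr_of_comp (N.subgroupOf P).subtype hχPc hχPN
  obtain ⟨α, hα, hαN, hαe⟩ := exists_irr_mul (N.subgroupOf P) η hη (by rw [hηN]; exact hχPN) χP hχP (by
    rw [hηN, classInner_irr_self hχPN]
    exact one_ne_zero)
  have hη1 : η 1 ≠ 0 := isIrr_apply_one_ne_zero hη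
  have hα1 : α 1 = 1 := by
    have h1 := congrFun hαe 1
    have h2 := congrFun hηN 1
    simp only [Pi.mul_apply] at h1
    have h3 : η 1 = χP 1 := h2
    rw [← h3] at h1
    exact (mul_left_cancel₀ hη1 (by rw [mul_one]; exact h1)).symm
  obtain ⟨ψ, hψ⟩ := Cfsg.Agent.CharactersDeep.LinearExt.exists_hom_of_isCharacter (isIrr_isCharacter hα) hα1
  have hαr : ∀ x : P, (α x).im = 0 := by
    intro x
    have h1 : α (x * x) = 1 := by
      have h2 := hαN ⟨x * x, Subgroup.mem_subgroupOf.2 (hsq x x.2)⟩ 1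
      rw [mul_one, hα1] at h2
      exact h2
    rw [← hψ, map_mul, Units.val_mul] at h1
    rcases mul_self_eq_one_iff.1 h1 with h2 | h2
    · rw [← hψ, h2]; simp
    · rw [← hψ, h2]; simp
  have hχPr : ∀ x : P, conj (χP x) = χP x := by
    intro x
    rw [hαe, Pi.mul_apply, map_mul, Complex.conj_eq_iff_im.2 (hηr x), Complex.conj_eq_iff_im.2 (hαr x)]
  -- `β` is trivial on `P`
  have hβP : ∀ x : P, β x = 1 := by
    intro x
    have h1 : (fun x : P => β x) = fun _ => 1 := by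
      refine eq_of_mul_eq (N.subgroupOf P) hχP hχPN ?_ (fun _ _ => rfl) ?_
      · intro n g
        exact hβN ⟨(n : P), Subgroup.mem_subgroupOf.1 n.2⟩ g
      · funext x
        have h2 := congrFun hβe (x : G)
        simp only [Pi.mul_apply] at h2 ⊢
        rw [mul_one, ← h2]
        exact hχPr x
    exact congrFun h1 x
  -- `φ` has odd order
  have hPk : P ≤ φ.ker := by
    intro x hx
    rw [MonoidHom.mem_ker]
    apply Units.ext
    rw [hφ, hβP ⟨x, hx⟩, Units.val_one]
  have hodd : Odd φ.ker.index := by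
    obtain ⟨c, hc⟩ := Subgroup.index_dvd_of_le hPk
    rw [hc] at hP
    exact (Nat.odd_mul.1 hP).1
  have hpow : ∀ g, φ g ^ φ.ker.index = 1 := by
    intro g
    have h1 : g ^ φ.ker.index ∈ φ.ker := Subgroup.pow_index_mem φ.ker g
    rw [MonoidHom.mem_ker, map_pow] at h1
    exact h1
  obtain ⟨j, hj⟩ := hodd
  let δ : G →* ℂˣ := φ ^ (j + 1)
  have hδ : ∀ g, δ g * δ g = φ g := by
    intro g
    have h1 := hpow g
    rw [hj] at h1
    show φ g ^ (j + 1) * φ g ^ (j + 1) = φ g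
    rw [← pow_add, show j + 1 + (j + 1) = (2 * j + 1) + 1 by ring, pow_succ, h1, one_mul]
  have hδc : ∀ g, conj (δ g : ℂ) * (δ g : ℂ) = 1 := by
    intro g
    have h1 : (δ g : ℂ) ^ Nat.card G = 1 := by
      rw [← Units.val_pow_eq_pow_val, ← map_pow, pow_card_eq_one', map_one, Units.val_one]
    have h2 : ‖(δ g : ℂ)‖ = 1 := by
      have h3 : ‖(δ g : ℂ) ^ Nat.card G‖ = ‖(1 : ℂ)‖ := by rw [h1]
      rw [norm_pow, norm_one] at h3
      exact (pow_eq_one_iff_of_nonneg (norm_nonneg _) Nat.card_pos.ne').1 h3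
    rw [mul_comm, Complex.mul_conj, Complex.normSq_eq_norm_sq, h2]
    simp
  refine ⟨fun g => χ g * δ g, Cfsg.Agent.CharactersDeep.ExtUnique.isIrr_mul_hom hχ δ, ?_, ?_⟩
  · intro g
    rw [← Complex.conj_eq_iff_im, map_mul]
    have h1 := congrFun hβe g
    simp only [Pi.mul_apply] at h1
    rw [h1, ← hφ g, ← hδ g, Units.val_mul]
    calc χ g * ((δ g : ℂ) * (δ g : ℂ)) * conj (δ g : ℂ)
        = χ g * (δ g : ℂ) * (conj (δ g : ℂ) * (δ g : ℂ)) := by ring
      _ = χ g * (δ g : ℂ) := by rw [hδc, mul_one]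
  · intro n
    have h1 : φ n = 1 := by
      have := hPk (hNP n.2)
      rwa [MonoidHom.mem_ker] at this
    have h2 : δ (n : G) = 1 := by
      show φ n ^ (j + 1) = 1
      rw [h1, one_pow]
    show χ n * (δ (n : G) : ℂ) = θ n
    rw [h2, Units.val_one, mul_one, hχθ]

/-- **The indicators of the characters over `θ`.** -/
theorem ext_good (hN2 : IsPGroup 2 N) (hNP : N ≤ P) (hP : Odd P.index) (hsq : ∀ x ∈ P, x * x ∈ N)
    {θ : N → ℂ} (hθ : IsIrrCharacter N θ)
    (hinv : ∀ (g : G) (n : N), θ ⟨g * n * g⁻¹, hN.conj_mem n n.2 g⟩ = θ n)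
    {η : P → ℂ} (hη : IsIrrCharacter P η) (hηr : ∀ g, (η g).im = 0) (hηθ : ∀ n : N, η ⟨n, hNP n.2⟩ = θ n)
    (hfs : fsi θ = 1) (hQ : FSGood True (G ⧸ N)) {χ : G → ℂ} (hχ : IsIrrCharacter G χ)
    (hover : ∑ᶠ n : N, χ n * θ n ≠ 0) : fsi χ = 1 ∨ fsi χ = 0 := by
  classical
  obtain ⟨χ₀, hχ₀, hχ₀r, hχ₀θ⟩ := exists_real_ext N P hN2 hNP hP hsq hθ hinv hη hηr hηθ
  have := Fintype.ofFinite G
  have := Fintype.ofFinite N
  have hres : (fun n : N => χ₀ n) = θ := funext hχ₀θ
  have hχ₀N : IsIrrCharacter N (fun n : N => χ₀ n) := by rw [hres]; exact hθ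
  rcases fsi_spec hχ with h | h
  · exact Or.inr h.1
  left
  obtain ⟨-, hr⟩ := h
  obtain ⟨β, hβ, hβN, hβe⟩ := exists_irr_mul N χ₀ hχ₀ hχ₀N χ hχ (by
    intro h0
    apply hover
    rw [finsum_eq_sum_of_fintype]
    unfold classInner at h0
    rcases mul_eq_zero.1 h0 with h1 | h1
    · exact absurd h1 (inv_ne_zero (by exact_mod_cast Nat.card_pos.ne'))
    · rw [← h1]
      refine Finset.sum_congr rfl fun n _ => ?_
      rw [← hχ₀θ, Complex.conj_eq_iff_im.2 (hχ₀r _)])
  -- `β` is real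
  have hβr : ∀ g, (β g).im = 0 := by
    intro g
    rw [← Complex.conj_eq_iff_im]
    have h1 : (fun g => conj (β g)) = β := by
      refine eq_of_mul_eq N hχ₀ hχ₀N (fun n g => by rw [hβN]) hβN ?_
      funext g
      have h2 := congrFun hβe g
      simp only [Pi.mul_apply] at h2 ⊢
      rw [← h2, ← Complex.conj_eq_iff_im.2 (hr g), h2, map_mul, Complex.conj_eq_iff_im.2 (hχ₀r g)]
    exact congrFun h1 g
  -- `β` is a character of the quotient
  obtain ⟨β', hβ', rfl⟩ := exists_quot N hβ hβN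
  have hfβ : fsi β' = 1 := by
    rcases hQ β' hβ' with h1 | h1
    · exact h1
    · exfalso
      refine fsi_ne_zero_of_real hβ' ?_ h1.2
      intro x
      obtain ⟨g, rfl⟩ := QuotientGroup.mk'_surjective N x
      exact hβr g
  have hfχ₀ : fsi χ₀ = 1 := by
    have h1 := fsi_restrict N.subtype hχ₀ (by
      have h2 : χ₀ ∘ N.subtype = θ := hres
      rw [h2]
      exact hθ) hχ₀r
    have h2 : χ₀ ∘ N.subtype = θ := hres
    rw [← h1, h2, hfs]
  rw [hβe, fsi_mul hχ₀ hβ (by rw [← hβe]; exact hχ) hχ₀r hβr, hfχ₀, fsi_comp _ (QuotientGroup.mk'_surjective N), hfβ,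
    mul_one]

end Ext

/-! ### Subgroups of an ambient group -/

/-- `ext_good` for subgroups `N ≤ P ≤ X` of a group `Γ`; `X = N φ(Y)`. -/
theorem ext_good_amb {Γ : Type u} [Group Γ] (X N P : Subgroup Γ) [Finite X] (hNP : N ≤ P) (hPX : P ≤ X)
    (hNn : ∀ x ∈ X, ∀ a ∈ N, x * a * x⁻¹ ∈ N) (hN2 : IsPGroup 2 N) (hP : Odd (P.relIndex X))
    (hsq : ∀ x ∈ P, x * x ∈ N) {θ : N → ℂ} (hθ : IsIrrCharacter N θ)
    (hinv : ∀ (x : Γ) (hx : x ∈ X) (n : N), θ ⟨x * n * x⁻¹, hNn x hx n n.2⟩ = θ n)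
    {η : P → ℂ} (hη : IsIrrCharacter P η) (hηr : ∀ g, (η g).im = 0) (hηθ : ∀ n : N, η ⟨n, hNP n.2⟩ = θ n)
    (hfs : fsi θ = 1) {Y : Type u} [Group Y] [Finite Y] (φ : Y →* Γ) (hφX : ∀ y, φ y ∈ X)
    (hdec : ∀ x ∈ X, ∃ a ∈ N, ∃ y, x = a * φ y) (hY : FSGood True Y)
    {χ : X → ℂ} (hχ : IsIrrCharacter X χ) (hover : ∑ᶠ n : N, χ ⟨n, hPX (hNP n.2)⟩ * θ n ≠ 0) :
    fsi χ = 1 ∨ fsi χ = 0 := by
  classical
  have hNX : N ≤ X := hNP.trans hPX
  have hn' : (N.subgroupOf X).Normal := ⟨fun n hn g => Subgroup.mem_subgroupOf.2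
    (hNn g g.2 n (Subgroup.mem_subgroupOf.1 hn))⟩
  let e := Subgroup.subgroupOfEquivOfLe hNX
  let eP := Subgroup.subgroupOfEquivOfLe hPX
  have hle : N.subgroupOf X ≤ P.subgroupOf X := fun n hn => Subgroup.mem_subgroupOf.2
    (hNP (Subgroup.mem_subgroupOf.1 hn))
  refine ext_good (N.subgroupOf X) (P.subgroupOf X) (hN2.of_equiv e.symm) hle hP
    (fun x hx => Subgroup.mem_subgroupOf.2 (hsq x (Subgroup.mem_subgroupOf.1 hx)))
    (θ := θ ∘ e) (isIrr_comp e.toMonoidHom e.surjective hθ) ?_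
    (η := η ∘ eP) (isIrr_comp eP.toMonoidHom eP.surjective hη) (fun g => hηr _) ?_ ?_ ?_ hχ ?_
  · intro g n
    exact hinv g g.2 (e n)
  · intro n
    exact hηθ (e n)
  · have : Finite N := Finite.of_equiv _ e.toEquiv
    have h1 := fsi_comp e.toMonoidHom e.surjective θ
    rw [← hfs, ← h1]
    rfl
  · let f : Y →* X := φ.codRestrict X hφX
    refine hY.of_surjective ((QuotientGroup.mk' (N.subgroupOf X)).comp f) ?_
    intro x
    obtain ⟨x, rfl⟩ := QuotientGroup.mk'_surjective _ x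
    obtain ⟨a, ha, y, hy⟩ := hdec x x.2
    refine ⟨y, ?_⟩
    have h1 : x = (⟨a, hNX ha⟩ : X) * f y := Subtype.ext hy
    rw [h1, map_mul]
    have h2 : QuotientGroup.mk' (N.subgroupOf X) (⟨a, hNX ha⟩ : X) = 1 :=
      (QuotientGroup.eq_one_iff _).2 (Subgroup.mem_subgroupOf.2 ha)
    rw [h2, one_mul]
    rfl
  · intro h0
    apply hover
    rw [← h0]
    exact (finsum_eq_of_bijective e e.bijective (fun n => rfl)).symm

end Cfsg.Agent.H392.FRExt
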